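/-! Generated tables for FiF (Fi22). -/

namespace Cfsg.Agent.Lib.Helper29.FiF

noncomputable def V0 : Nat := 0x8800000000000000480008
noncomputable def V1 : Nat := 0x500000000000005010000000000000100000
noncomputable def V2 : Nat := 0x1000000000000000500000
noncomputable def V3 : Nat := 0x5000000000000000000010
noncomputable def V4 : Nat := 0x9000000000000000580018
noncomputable def V5 : Nat := 0x50000000000000105000000000000000100000
noncomputable def V6 : Nat := 0x9800000000000000600020
noncomputable def V7 : Nat := 0x5000000000000010005000000000000000100000
noncomputable def V8 : Nat := 0xa000000000000000680028
noncomputable def V9 : Nat := 0x500000000000001000005000000000000000100000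
noncomputable def V10 : Nat := 0xa800000000000000700030
noncomputable def V11 : Nat := 0x50000000000000100000005000000000000000100000
noncomputable def V12 : Nat := 0xb000000000000000780038
noncomputable def V13 : Nat := 0x5000000000000010000000005000000000000000100000
noncomputable def V14 : Nat := 0xb800000000000000800040
noncomputable def V15 : Nat := 0x500000000000001000000000005000000000000000100000
noncomputable def R0 : Nat := 0x1b000000000000003a0058
noncomputable def R1 : Nat := 0x1c000000000000193b000000000000385956
noncomputable def R2 : Nat := 0x370000000000000036005a
noncomputable def R3 : Nat := 0x3500000000000000550054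
noncomputable def R4 : Nat := 0x1700000000000000330052
noncomputable def R5 : Nat := 0x18000000000000341500000000000053310050
noncomputable def R6 : Nat := 0x13000000000000002f004e
noncomputable def R7 : Nat := 0x1400000000000030001100000000004f002d004c
noncomputable def R8 : Nat := 0xf000000000000002b004a
noncomputable def R9 : Nat := 0x100000000000002c00000d000000004b0000290048
noncomputable def R10 : Nat := 0xb00000000000000270046
noncomputable def R11 : Nat := 0xc000000000000280000000900000047000000250044
noncomputable def R12 : Nat := 0x700000000000000230042
noncomputable def R13 : Nat := 0x800000000000024000000000500004300000000210040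
noncomputable def R14 : Nat := 0x3000000000000001f003e
noncomputable def R15 : Nat := 0x400000000000020000000000001003f00000000001d003c
noncomputable def R16 : Nat := 0x5b
noncomputable def MG : Nat := 0x505050505050501010101010100010000000000000000000
noncomputable def MT : Nat := 0x2060a0e12161a1e22262a2e3200393d4145494d51005700
noncomputable def PAR : Nat := 0x505050505050501010101010101010000000000000000000
noncomputable def PL : Nat := 0xf0d0b090705010f0d0b09070502010f0d0b090705030100
noncomputable def FIN : Nat := 0x200000000000000010000
noncomputable def VERT : Nat := 0x501000
noncomputable def L0 : Nat := 0x100800
noncomputable def L1 : Nat := 0x100800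
noncomputable def L2 : Nat := 0x81000
noncomputable def L3 : Nat := 0x100008
noncomputable def L4 : Nat := 0x100800
noncomputable def L5 : Nat := 0x100800
noncomputable def L6 : Nat := 0x100800
noncomputable def L7 : Nat := 0x100800
noncomputable def L8 : Nat := 0x100800
noncomputable def L9 : Nat := 0x100800
noncomputable def L10 : Nat := 0x100800
noncomputable def L11 : Nat := 0x100800
noncomputable def L12 : Nat := 0x100800
noncomputable def L13 : Nat := 0x100800
noncomputable def L14 : Nat := 0x100800
noncomputable def L15 : Nat := 0x100800

end Cfsg.Agent.Lib.Helper29.FiF
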